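import Mathlib
import Cfsg.Prelude.Def_ClassicalGeometry

/-! The stabiliser in `GL n` of the span of the first `k` coordinate vectors. -/

set_option autoImplicit false

namespace Cfsg.Agent.GLParab

open Matrix

variable {F : Type*} [Field F] {n : ℕ}

/-- The span of the first `k` coordinate vectors. -/
def W (F : Type*) [Field F] (n k : ℕ) : Set (Fin n → F) :=
  {v | ∀ i : Fin n, k ≤ (i : ℕ) → v i = 0}

/-- The stabiliser of `W F n k`. -/
abbrev P (F : Type*) [Field F] (n k : ℕ) : Subgroup (Matrix.GeneralLinearGroup (Fin n) F) :=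
  Cfsg.stabilizing (Cfsg.glToMat (Fin n) F) (W F n k)

theorem zero_of_mem {k : ℕ} {g : Matrix.GeneralLinearGroup (Fin n) F} (hg : g ∈ P F n k)
    {i j : Fin n} (hi : k ≤ (i : ℕ)) (hj : (j : ℕ) < k) : (g : Matrix (Fin n) (Fin n) F) i j = 0 := by
  have h : (Pi.single j 1 : Fin n → F) ∈ W F n k := fun a ha =>
    Pi.single_eq_of_ne (fun e => by rw [e] at ha; omega) 1
  simpa [Matrix.mulVec_single] using (hg (Pi.single j 1)).mp h i hi

theorem mulVec_mem {k : ℕ} {M : Matrix (Fin n) (Fin n) F}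
    (hM : ∀ i j : Fin n, k ≤ (i : ℕ) → (j : ℕ) < k → M i j = 0) {v : Fin n → F}
    (hv : v ∈ W F n k) : M *ᵥ v ∈ W F n k := by
  intro i hi
  show ∑ j, M i j * v j = 0
  refine Finset.sum_eq_zero fun j _ => ?_
  by_cases hj : (j : ℕ) < k
  · simp [hM i j hi hj]
  · simp [hv j (not_lt.mp hj)]

/-- `W F n k` as a submodule. -/
def WSub (F : Type*) [Field F] (n k : ℕ) : Submodule F (Fin n → F) where
  carrier := W F n k
  add_mem' ha hb i hi := by simp [ha i hi, hb i hi]
  zero_mem' i hi := rfl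
  smul_mem' c a ha i hi := by simp [ha i hi]

@[simp] theorem coe_WSub (k : ℕ) : (WSub F n k : Set (Fin n → F)) = W F n k := rfl

theorem mem_P_iff {k : ℕ} {g : Matrix.GeneralLinearGroup (Fin n) F} :
    g ∈ P F n k ↔ ∀ i j : Fin n, k ≤ (i : ℕ) → (j : ℕ) < k → (g : Matrix (Fin n) (Fin n) F) i j = 0 := by
  refine ⟨fun hg i j => zero_of_mem hg, fun h v => ⟨fun hv => mulVec_mem h hv, fun hv => ?_⟩⟩
  let f : WSub F n k →ₗ[F] WSub F n k :=
    { toFun := fun x => ⟨(g : Matrix (Fin n) (Fin n) F) *ᵥ (x : Fin n → F), mulVec_mem h x.2⟩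
      map_add' := fun x y => Subtype.ext (by simp [Matrix.mulVec_add])
      map_smul' := fun c x => Subtype.ext (by simp [Matrix.mulVec_smul]) }
  have hinj : Function.Injective ((g : Matrix (Fin n) (Fin n) F).mulVec) :=
    Matrix.mulVec_injective_iff_isUnit.mpr g.isUnit
  have hf : Function.Injective f := fun x y hxy => Subtype.ext (hinj (congrArg Subtype.val hxy))
  obtain ⟨x, hx⟩ := LinearMap.injective_iff_surjective.mp hf ⟨_, hv⟩
  have := hinj (congrArg Subtype.val hx)
  exact this ▸ x.2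

/-- The transvection-like element `1 + u φᵀ` with `φ ⬝ u = 0`. -/
def T (u φ : Fin n → F) (h : φ ⬝ᵥ u = 0) : Matrix.GeneralLinearGroup (Fin n) F :=
  ⟨1 + vecMulVec u φ, 1 - vecMulVec u φ,
    by simp [add_mul, mul_sub, Matrix.vecMulVec_mul_vecMulVec, h],
    by simp [sub_mul, mul_add, Matrix.vecMulVec_mul_vecMulVec, h]⟩

@[simp] theorem coe_T (u φ : Fin n → F) (h : φ ⬝ᵥ u = 0) :
    (T u φ h : Matrix (Fin n) (Fin n) F) = 1 + vecMulVec u φ := rfl

theorem T_mem_P {k : ℕ} (u φ : Fin n → F) (h : φ ⬝ᵥ u = 0)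
    (hu : u ∈ W F n k ∨ ∀ j : Fin n, (j : ℕ) < k → φ j = 0) : T u φ h ∈ P F n k := by
  rw [mem_P_iff]
  intro i j hi hj
  have hij : i ≠ j := fun e => by rw [e] at hi; omega
  rcases hu with hu | hu
  · simp [hij, Matrix.vecMulVec_apply, hu i hi]
  · simp [hij, Matrix.vecMulVec_apply, hu j hj]

theorem T_conj (g : Matrix.GeneralLinearGroup (Fin n) F) (u φ u' φ' : Fin n → F) (h : φ ⬝ᵥ u = 0)
    (h' : φ' ⬝ᵥ u' = 0) (hu : (g : Matrix (Fin n) (Fin n) F) *ᵥ u = u')
    (hφ : φ' ᵥ* (g : Matrix (Fin n) (Fin n) F) = φ) : g * T u φ h * g⁻¹ = T u' φ' h' := by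
  rw [mul_inv_eq_iff_eq_mul]
  ext1
  simp only [Units.val_mul, coe_T, mul_add, add_mul, mul_one, one_mul]
  rw [Matrix.mul_vecMulVec, Matrix.vecMulVec_mul, hu, hφ]

theorem card_P [Fintype F] {k : ℕ} (hk : k ≤ n) :
    Nat.card ↥(P F n k) = Fintype.card F ^ (k * (n - k))
      * (∏ i : Fin k, (Fintype.card F ^ k - Fintype.card F ^ (i : ℕ)))
      * ∏ i : Fin (n - k), (Fintype.card F ^ (n - k) - Fintype.card F ^ (i : ℕ)) := by
  classical
  obtain ⟨l, rfl⟩ := Nat.exists_eq_add_of_le hk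
  rw [Nat.add_sub_cancel_left]
  let e : Fin k ⊕ Fin l ≃ Fin (k + l) := finSumFinEquiv
  have hinl : ∀ j : Fin k, ((e (Sum.inl j) : Fin (k + l)) : ℕ) < k := fun j => by simp [e]
  have hinr : ∀ i : Fin l, k ≤ ((e (Sum.inr i) : Fin (k + l)) : ℕ) := fun i => by simp [e]
  let blk : ↥(P F (k + l) k) → Matrix (Fin k ⊕ Fin l) (Fin k ⊕ Fin l) F :=
    fun g => ((g : Matrix.GeneralLinearGroup (Fin (k + l)) F) : Matrix _ _ F).submatrix e e
  have h21 : ∀ g, (blk g).toBlocks₂₁ = 0 := by
    intro g; ext i j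
    exact zero_of_mem g.2 (hinr i) (hinl j)
  have hblk : ∀ g, blk g = fromBlocks (blk g).toBlocks₁₁ (blk g).toBlocks₁₂ 0 (blk g).toBlocks₂₂ := by
    intro g
    conv_lhs => rw [← Matrix.fromBlocks_toBlocks (blk g), h21 g]
  have hdet : ∀ g, (blk g).toBlocks₁₁.det ≠ 0 ∧ (blk g).toBlocks₂₂.det ≠ 0 := by
    intro g
    have h : (blk g).det ≠ 0 := by
      rw [Matrix.det_submatrix_equiv_self]
      exact ((Matrix.isUnit_iff_isUnit_det _).mp (Units.isUnit _)).ne_zero
    rw [hblk g, Matrix.det_fromBlocks_zero₂₁] at h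
    exact mul_ne_zero_iff.mp h
  let f : ↥(P F (k + l) k) →
      Matrix (Fin k) (Fin l) F × GL (Fin k) F × GL (Fin l) F := fun g =>
    ((blk g).toBlocks₁₂, GeneralLinearGroup.mkOfDetNeZero _ (hdet g).1,
      GeneralLinearGroup.mkOfDetNeZero _ (hdet g).2)
  have hf : Function.Bijective f := by
    constructor
    · intro g h hgh
      simp only [f, Prod.mk.injEq] at hgh
      have hb : blk g = blk h := by
        rw [hblk g, hblk h]
        have h1 : (blk g).toBlocks₁₁ = (blk h).toBlocks₁₁ := congrArg Units.val hgh.2.1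
        have h2 : (blk g).toBlocks₂₂ = (blk h).toBlocks₂₂ := congrArg Units.val hgh.2.2
        rw [h1, h2, hgh.1]
      apply Subtype.ext; apply Units.ext
      ext i j
      have := congrFun (congrFun hb (e.symm i)) (e.symm j)
      simpa [blk] using this
    · rintro ⟨B, A, D⟩
      let M : Matrix (Fin (k + l)) (Fin (k + l)) F :=
        (fromBlocks (A : Matrix (Fin k) (Fin k) F) B 0 (D : Matrix (Fin l) (Fin l) F)).submatrix e.symm e.symm
      have hM : M.det ≠ 0 := by
        rw [Matrix.det_submatrix_equiv_self, Matrix.det_fromBlocks_zero₂₁]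
        exact mul_ne_zero ((Matrix.isUnit_iff_isUnit_det _).mp A.isUnit).ne_zero
          ((Matrix.isUnit_iff_isUnit_det _).mp D.isUnit).ne_zero
      have hP : GeneralLinearGroup.mkOfDetNeZero M hM ∈ P F (k + l) k := by
        rw [mem_P_iff]
        intro i j hi hj
        obtain ⟨i' | i', rfl⟩ := e.surjective i
        · exact absurd (hinl i') (by omega)
        obtain ⟨j' | j', rfl⟩ := e.surjective j
        · show M _ _ = 0
          simp [M]
        · exact absurd (hinr j') (by omega)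
      refine ⟨⟨_, hP⟩, ?_⟩
      have hb : blk ⟨_, hP⟩ = fromBlocks (A : Matrix (Fin k) (Fin k) F) B 0 (D : Matrix (Fin l) (Fin l) F) := by
        ext i j
        show M (e i) (e j) = _
        simp [M]
      refine Prod.ext ?_ (Prod.ext (Units.ext ?_) (Units.ext ?_))
      · show (blk _).toBlocks₁₂ = B
        rw [hb, Matrix.toBlocks_fromBlocks₁₂]
      · show (blk _).toBlocks₁₁ = _
        rw [hb, Matrix.toBlocks_fromBlocks₁₁]
      · show (blk _).toBlocks₂₂ = _
        rw [hb, Matrix.toBlocks_fromBlocks₂₂]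
  rw [Nat.card_eq_of_bijective f hf, Nat.card_prod, Nat.card_prod, Matrix.card_GL_field,
    Matrix.card_GL_field, ← mul_assoc]
  simp [Nat.card_eq_fintype_card, Matrix, ← pow_mul, mul_comm l k]

/-- A subspace invariant under `P F n k` is `⊥`, `W` or `⊤`. -/
theorem invariant_submodule {k : ℕ} (U : Submodule F (Fin n → F))
    (hU : ∀ g ∈ P F n k, ∀ v ∈ U, (g : Matrix (Fin n) (Fin n) F) *ᵥ v ∈ U) :
    U = ⊥ ∨ U = WSub F n k ∨ U = ⊤ := by
  classical
  by_cases h0 : U = ⊥
  · exact Or.inl h0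
  refine Or.inr ?_
  -- from a vector with a non-zero `b`-th entry, get the allowed unit vectors
  have hmove : ∀ v ∈ U, ∀ b, v b ≠ 0 → ∀ a, a ≠ b → ((a : ℕ) < k ∨ k ≤ (b : ℕ)) →
      (Pi.single a 1 : Fin n → F) ∈ U := by
    intro v hv b hb a hab hok
    have h : (Pi.single b ((v b)⁻¹) : Fin n → F) ⬝ᵥ Pi.single a 1 = 0 := by simp [hab]
    have hP : T _ _ h ∈ P F n k := by
      refine T_mem_P _ _ h ?_
      rcases hok with hok | hok
      · exact Or.inl fun i hi => Pi.single_eq_of_ne (fun e => by rw [e] at hi; omega) 1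
      · exact Or.inr fun j hj => Pi.single_eq_of_ne (fun e => by rw [e] at hj; omega) _
    have h2 := U.sub_mem (hU _ hP v hv) hv
    rwa [coe_T, Matrix.add_mulVec, Matrix.one_mulVec, add_sub_cancel_left, Matrix.vecMulVec_mulVec,
      op_smul_eq_smul, single_dotProduct, inv_mul_cancel₀ hb, one_smul] at h2
  have hspan : ∀ v : Fin n → F, (∀ a, v a ≠ 0 → (Pi.single a 1 : Fin n → F) ∈ U) → v ∈ U := by
    intro v h
    rw [← Finset.univ_sum_single v]
    refine U.sum_mem fun a _ => ?_
    by_cases ha : v a = 0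
    · simp [ha]
    · simpa [← Pi.single_smul'] using U.smul_mem (v a) (h a ha)
  have hall : ∀ v ∈ U, ∀ b, v b ≠ 0 → ∀ a : Fin n, ((a : ℕ) < k ∨ k ≤ (b : ℕ)) →
      (Pi.single a 1 : Fin n → F) ∈ U := by
    intro v hv b hb a hok
    by_cases hab : a = b
    · subst hab
      by_cases hbig : ∃ c, c ≠ a ∧ v c ≠ 0 ∧ ((a : ℕ) < k ∨ k ≤ (c : ℕ))
      · obtain ⟨c, hca, hc, hok'⟩ := hbig
        exact hmove v hv c hc a hca.symm hok'
      · push Not at hbig
        have hrest : v - Pi.single a (v a) ∈ U := by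
          refine hspan _ fun c hc => ?_
          have hca : c ≠ a := fun e => by simp [e] at hc
          refine hmove v hv a hb c hca ?_
          by_contra hno
          push Not at hno
          have := hbig c hca (by simpa [hca] using hc)
          omega
        have h2 := U.smul_mem (v a)⁻¹ (U.sub_mem hv hrest)
        simpa [← Pi.single_smul', hb] using h2
    · exact hmove v hv b hb a hab hok
  obtain ⟨v, hv, hv0⟩ := Submodule.exists_mem_ne_zero_of_ne_bot h0
  obtain ⟨b, hb⟩ := Function.ne_iff.mp hv0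
  rw [Pi.zero_apply] at hb
  by_cases hle : U ≤ WSub F n k
  · refine Or.inl (le_antisymm hle fun w hw => hspan w fun a ha => hall v hv b hb a (Or.inl ?_))
    by_contra hc
    exact ha (hw a (not_lt.mp hc))
  · obtain ⟨w, hw, hwW⟩ := SetLike.not_le_iff_exists.mp hle
    obtain ⟨c, hc⟩ := not_forall.mp hwW
    push Not at hc
    exact Or.inr (eq_top_iff.mpr fun z _ => hspan z fun a _ => hall w hw c hc.2 a (Or.inr hc.1))

/-- `P F n k` is a maximal subgroup of `GL n F`. -/
theorem isCoatom_P {k : ℕ} (hk0 : 0 < k) (hkn : k < n) : IsCoatom (P F n k) := by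
  classical
  constructor
  · intro h
    let a : Fin n := ⟨k, hkn⟩
    let b : Fin n := ⟨0, by omega⟩
    have hab : a ≠ b := fun e => by simp [a, b, Fin.ext_iff] at e; omega
    have h0 : (Pi.single b (1 : F) : Fin n → F) ⬝ᵥ Pi.single a 1 = 0 := by simp [hab]
    have := zero_of_mem (h ▸ Subgroup.mem_top (T _ _ h0) : T _ _ h0 ∈ P F n k) (i := a) (j := b) le_rfl hk0
    simp [hab, Matrix.vecMulVec_apply] at this
  · intro H hH
    have hle := hH.le
    obtain ⟨g, hgH, hgP⟩ := SetLike.exists_of_lt hH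
    rw [mem_P_iff] at hgP
    push Not at hgP
    obtain ⟨i₀, j₀, hi₀, hj₀, hg0⟩ := hgP
    -- a transvection of `H` outside `P`
    obtain ⟨u, φ, h0, hT, hu, hφ⟩ : ∃ (u φ : Fin n → F) (h0 : φ ⬝ᵥ u = 0), T u φ h0 ∈ H ∧
        u ∉ W F n k ∧ ∃ j : Fin n, (j : ℕ) < k ∧ φ j ≠ 0 := by
      have hw : (Pi.single j₀ 1 : Fin n → F) ∈ W F n k := fun a ha =>
        Pi.single_eq_of_ne (fun e => by rw [e] at ha; omega) 1
      set w : Fin n → F := Pi.single j₀ 1 with hwdef
      set u := (g : Matrix (Fin n) (Fin n) F) *ᵥ w with hudef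
      have hu : u ∉ W F n k := fun h => hg0 (by simpa [hudef, hwdef, Matrix.mulVec_single] using h i₀ hi₀)
      obtain ⟨ψ, hψw, hψ⟩ : ∃ ψ : Fin n → F, ψ ⬝ᵥ w = 0 ∧
          ∃ j : Fin n, (j : ℕ) < k ∧ (ψ ᵥ* ((g⁻¹ : Matrix.GeneralLinearGroup (Fin n) F) : Matrix (Fin n) (Fin n) F)) j ≠ 0 := by
        by_cases hc : ∃ i j : Fin n, i ≠ j₀ ∧ (j : ℕ) < k ∧ ((g⁻¹ : Matrix.GeneralLinearGroup (Fin n) F) : Matrix (Fin n) (Fin n) F) i j ≠ 0
        · obtain ⟨i, j, hij, hj, hne⟩ := hc
          exact ⟨Pi.single i 1, by simp [hwdef, hij], j, hj, by simpa [Matrix.single_one_vecMul] using hne⟩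
        · exfalso
          push Not at hc
          have hinv : (g⁻¹ : Matrix.GeneralLinearGroup (Fin n) F) ∈ P F n k := by
            rw [mem_P_iff]
            intro i j hi hj
            exact hc i j (fun e => by rw [e] at hi; omega) hj
          exact hu ((inv_mem hinv : g⁻¹⁻¹ ∈ P F n k) w |>.mp hw |> fun h => by simpa [hudef] using h)
      set φ := ψ ᵥ* ((g⁻¹ : Matrix.GeneralLinearGroup (Fin n) F) : Matrix (Fin n) (Fin n) F) with hφdef
      have hback : φ ᵥ* (g : Matrix (Fin n) (Fin n) F) = ψ := by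
        rw [hφdef, Matrix.vecMul_vecMul, ← Units.val_mul, inv_mul_cancel, Units.val_one, Matrix.vecMul_one]
      have h0 : φ ⬝ᵥ u = 0 := by rw [hudef, Matrix.dotProduct_mulVec, hback, hψw]
      refine ⟨u, φ, h0, ?_, hu, hψ⟩
      rw [← T_conj g w ψ u φ hψw h0 hudef.symm hback]
      exact H.mul_mem (H.mul_mem hgH (hle (T_mem_P w ψ hψw (Or.inl hw)))) (H.inv_mem hgH)
    obtain ⟨a, ha, hua⟩ : ∃ a : Fin n, k ≤ (a : ℕ) ∧ u a ≠ 0 := by
      by_contra hno; push Not at hno; exact hu hno
    -- move `u` to a coordinate vector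
    obtain ⟨φ₁, h1, hT1, b, hb, hφ1⟩ : ∃ (φ₁ : Fin n → F) (h1 : φ₁ ⬝ᵥ Pi.single a (1 : F) = 0),
        T _ _ h1 ∈ H ∧ ∃ b : Fin n, (b : ℕ) < k ∧ φ₁ b ≠ 0 := by
      let s : Fin n → F := (u a)⁻¹ • u - Pi.single a 1
      have hs : (Pi.single a 1 : Fin n → F) ⬝ᵥ s = 0 := by simp [s, hua]
      have hp : T s _ hs ∈ P F n k :=
        T_mem_P _ _ hs (Or.inr fun j hj => Pi.single_eq_of_ne (fun e => by rw [e] at hj; omega) 1)
      have hpu : (T s _ hs : Matrix (Fin n) (Fin n) F) *ᵥ Pi.single a 1 = (u a)⁻¹ • u := by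
        rw [coe_T, Matrix.add_mulVec, Matrix.one_mulVec, Matrix.vecMulVec_mulVec, op_smul_eq_smul]
        simp [s]
      set φ₁ := ((u a) • φ) ᵥ* (T s _ hs : Matrix (Fin n) (Fin n) F) with hφ₁
      have h1 : φ₁ ⬝ᵥ Pi.single a (1 : F) = 0 := by
        rw [hφ₁, ← Matrix.dotProduct_mulVec, hpu, smul_dotProduct, dotProduct_smul, h0]; simp
      refine ⟨φ₁, h1, ?_, ?_⟩
      · have hsame : ((u a) • φ) ⬝ᵥ ((u a)⁻¹ • u) = 0 := by rw [smul_dotProduct, dotProduct_smul, h0]; simp
        have e : T _ _ hsame = T u φ h0 := by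
          ext1; simp [Matrix.vecMulVec_smul, Matrix.smul_vecMulVec, smul_smul, hua]
        have e2 := T_conj (T s _ hs) _ _ _ _ h1 hsame hpu rfl
        rw [e] at e2
        have : T _ _ h1 = (T s _ hs)⁻¹ * T u φ h0 * T s _ hs := by rw [← e2]; group
        rw [this]
        exact H.mul_mem (H.mul_mem (H.inv_mem (hle hp)) hT) (hle hp)
      · obtain ⟨j, hj, hφj⟩ := hφ
        refine ⟨j, hj, ?_⟩
        have hja : j ≠ a := fun e => by rw [e] at hj; omega
        simp [hφ₁, Matrix.vecMul_add, Matrix.vecMul_vecMulVec, hja, hua, hφj]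
    have hab : a ≠ b := fun e => by rw [e] at ha; omega
    -- clear all but one entry of the functional
    obtain ⟨c₀, hc₀, h2, hT2⟩ : ∃ (c₀ : F) (_ : c₀ ≠ 0)
        (h2 : (Pi.single b c₀ : Fin n → F) ⬝ᵥ Pi.single a (1 : F) = 0), T _ _ h2 ∈ H := by
      have hφa : φ₁ a = 0 := by simpa using h1
      let χ : Fin n → F := (φ₁ b)⁻¹ • (φ₁ - Pi.single b (φ₁ b))
      have hχ : χ ⬝ᵥ Pi.single b (1 : F) = 0 := by simp [χ]
      have hp : T _ χ hχ ∈ P F n k :=
        T_mem_P _ _ hχ (Or.inl fun i hi => Pi.single_eq_of_ne (fun e => by rw [e] at hi; omega) 1)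
      have h2 : (Pi.single b (φ₁ b) : Fin n → F) ⬝ᵥ Pi.single a (1 : F) = 0 := by simp [hab]
      refine ⟨φ₁ b, hφ1, h2, ?_⟩
      have hfix : (T _ χ hχ : Matrix (Fin n) (Fin n) F) *ᵥ Pi.single a 1 = Pi.single a 1 := by
        rw [coe_T, Matrix.add_mulVec, Matrix.one_mulVec, Matrix.vecMulVec_mulVec, op_smul_eq_smul]
        simp [χ, hφa, hab]
      have hvm : (Pi.single b (φ₁ b) : Fin n → F) ᵥ* (T _ χ hχ : Matrix (Fin n) (Fin n) F) = φ₁ := by
        rw [coe_T, Matrix.vecMul_add, Matrix.vecMul_one, Matrix.vecMul_vecMulVec]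
        funext i
        simp [χ, hφ1]
      rw [← T_conj _ _ _ _ _ h1 h2 hfix hvm]
      exact H.mul_mem (H.mul_mem (hle hp) hT1) (H.inv_mem (hle hp))
    rw [eq_top_iff]
    intro x _
    suffices h : ∀ y : Matrix.GeneralLinearGroup (Fin n) F,
        (y : Matrix (Fin n) (Fin n) F) = (x : Matrix (Fin n) (Fin n) F) → y ∈ H from h x rfl
    have hS : ∀ M : Matrix (Fin n) (Fin n) F, M.det ≠ 0 →
        ∃ y ∈ H, ((y : Matrix.GeneralLinearGroup (Fin n) F) : Matrix (Fin n) (Fin n) F) = M := by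
      intro M hM
      refine Matrix.diagonal_transvection_induction_of_det_ne_zero
        (fun M => ∃ y ∈ H, ((y : Matrix.GeneralLinearGroup (Fin n) F) : Matrix (Fin n) (Fin n) F) = M) M hM ?_ ?_ ?_
      · intro D hD
        refine ⟨GeneralLinearGroup.mkOfDetNeZero _ hD, hle ?_, rfl⟩
        rw [mem_P_iff]
        intro i j hi hj
        exact Matrix.diagonal_apply_ne _ (fun e => by rw [e] at hi; omega)
      · rintro ⟨i, j, hij, c⟩
        have hE : (Pi.single j c : Fin n → F) ⬝ᵥ Pi.single i (1 : F) = 0 := by simp [hij]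
        refine ⟨T _ _ hE, ?_, ?_⟩
        swap
        · ext r s
          simp only [Matrix.TransvectionStruct.toMatrix, Matrix.transvection, coe_T, Matrix.add_apply,
            Matrix.vecMulVec_apply, Matrix.single_apply, Pi.single_apply]
          by_cases hr : r = i <;> by_cases hs : s = j <;> simp [hr, hs] <;> intro e <;> simp_all
        by_cases hc : c = 0
        · have : T _ _ hE = 1 := by ext1; simp [hc]
          rw [this]; exact H.one_mem
        by_cases hok : (i : ℕ) < k ∨ k ≤ (j : ℕ)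
        · refine hle (T_mem_P _ _ hE ?_)
          rcases hok with hok | hok
          · exact Or.inl fun l hl => Pi.single_eq_of_ne (fun e => by rw [e] at hl; omega) 1
          · exact Or.inr fun l hl => Pi.single_eq_of_ne (fun e => by rw [e] at hl; omega) _
        push Not at hok
        let σ : Equiv.Perm (Fin n) := Equiv.swap a i * Equiv.swap b j
        have hσa : σ a = i := by
          simp [σ, Equiv.swap_apply_of_ne_of_ne hab (fun e : a = j => by rw [e] at ha; omega)]
        have hσb : σ b = j := by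
          simp [σ, Equiv.swap_apply_of_ne_of_ne (fun e : j = a => by rw [← e] at ha; omega) hij.symm]
        let d : Fin n → F := Function.update 1 b (c₀ / c)
        let N : Matrix (Fin n) (Fin n) F := Matrix.of fun r s => if σ s = r then d s else 0
        have hN : N = σ⁻¹.permMatrix F * Matrix.diagonal d := by
          ext r s
          simp [N, Matrix.mul_diagonal, PEquiv.toMatrix_apply, eq_comm]
          refine if_congr ⟨fun e => ?_, fun e => ?_⟩ rfl rfl <;> simp [e]
        have hdN : N.det ≠ 0 := by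
          rw [hN, Matrix.det_mul, Matrix.det_permutation, Matrix.det_diagonal]
          refine mul_ne_zero ?_ (Finset.prod_ne_zero_iff.mpr fun s _ => ?_)
          · rcases Int.units_eq_one_or (Equiv.Perm.sign σ⁻¹) with h | h <;> simp [h]
          · by_cases hs : s = b <;> simp [d, hs, hc, hc₀]
        have hNP : GeneralLinearGroup.mkOfDetNeZero N hdN ∈ P F n k := by
          rw [mem_P_iff]
          intro r s hr hs
          show N r s = 0
          simp only [N, Matrix.of_apply]
          rw [if_neg]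
          intro e
          have h2' : ((Equiv.swap b j s : Fin n) : ℕ) < k := by
            rw [Equiv.swap_apply_def]; split_ifs <;> first | exact hb | exact hok.2 | exact hs
          have h1' : ((σ s : Fin n) : ℕ) < k := by
            simp only [σ, Equiv.Perm.mul_apply]
            rw [Equiv.swap_apply_of_ne_of_ne (fun e => by rw [e] at h2'; omega) (fun e => by rw [e] at h2'; omega)]
            exact h2'
          rw [e] at h1'; omega
        rw [← T_conj (GeneralLinearGroup.mkOfDetNeZero N hdN) _ _ _ _ h2 hE ?_ ?_]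
        · exact H.mul_mem (H.mul_mem (hle hNP) hT2) (H.inv_mem (hle hNP))
        · show N *ᵥ _ = _
          funext r
          simp [N, Matrix.mulVec_single, hσa, d, hab, Pi.single_apply, eq_comm]
        · show _ ᵥ* N = _
          funext s
          simp only [Matrix.single_vecMul, N, Matrix.of_apply, Matrix.row, Pi.smul_apply, smul_eq_mul]
          by_cases hs : s = b
          · subst hs; simp [hσb, d]; field_simp
          · have : σ s ≠ j := fun e => hs (σ.injective (e.trans hσb.symm))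
            simp [this, hs]
      · rintro A B - - ⟨y, hy, rfl⟩ ⟨z, hz, rfl⟩
        exact ⟨y * z, H.mul_mem hy hz, rfl⟩
    intro y hy
    obtain ⟨y', hy', he⟩ := hS (y : Matrix (Fin n) (Fin n) F) ((Matrix.isUnit_iff_isUnit_det _).mp y.isUnit).ne_zero
    rwa [Units.ext he.symm]

end Cfsg.Agent.GLParab
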